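import Cfsg.Prelude.Def_RootSubgroups
import Cfsg.Agent.H9.Syl

/-! RI.B: local lemmas on sets of root involutions. -/

set_option autoImplicit false

namespace RI

open Cfsg Subgroup

variable {G : Type*} [Group G] {D : Set G} {a b c x y z g u : G}

theorem oe_iff : Odd (orderOf g) ↔ ∃ n, Odd n ∧ g ^ n = 1 :=
  ⟨fun h => ⟨_, h, pow_orderOf_eq_one g⟩, fun ⟨_, h, e⟩ => h.of_dvd_nat (orderOf_dvd_of_pow_eq_one e)⟩

theorem eq_one_of_pow {k : ℕ} (h : Odd (orderOf g)) (e : g ^ 2 ^ k = 1) : g = 1 :=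
  orderOf_eq_one_iff.1 (((Nat.coprime_two_right.2 h).pow_right k).eq_one_of_dvd (orderOf_dvd_of_pow_eq_one e))

theorem eq_one_of_sq (h : Odd (orderOf g)) (e : g * g = 1) : g = 1 :=
  eq_one_of_pow (k := 1) h (by rw [pow_one, sq, e])

theorem eq_one_of_four (h : Odd (orderOf g)) (e : g * g * (g * g) = 1) : g = 1 :=
  eq_one_of_pow (k := 2) h (by rw [← e]; simp [pow_succ, mul_assoc])

theorem comm_of_sq (h : Odd (orderOf g)) (e : g * g * u = u * (g * g)) : g * u = u * g := by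
  obtain ⟨n, ⟨k, rfl⟩, h⟩ := oe_iff.1 h
  have : g = (g * g) ^ (k + 1) := by rw [← sq, ← pow_mul, show 2 * (k + 1) = 2 * k + 1 + 1 by ring, pow_succ, h, one_mul]
  rw [this]
  exact (Commute.pow_left e (k + 1)).eq

theorem ord_conj (g u : G) : orderOf (u * g * u⁻¹) = orderOf g :=
  orderOf_injective (MulAut.conj u).toMonoidHom (MulAut.conj u).injective g

theorem oe_conj (h : Odd (orderOf g)) (u : G) : Odd (orderOf (u * g * u⁻¹)) := by rwa [ord_conj]

theorem oe_swap (h : Odd (orderOf (a * b))) : Odd (orderOf (b * a)) := by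
  simpa [mul_assoc] using oe_conj h a⁻¹

/-- An odd element times a commuting involution is not odd. -/
theorem eq_one_of_mix (h : Odd (orderOf g)) (h' : Odd (orderOf (g * c))) (e : g * c = c * g) (c2 : c * c = 1) :
    c = 1 := by
  obtain ⟨n, hn, e1⟩ := oe_iff.1 h
  obtain ⟨m, hm, e2⟩ := oe_iff.1 h'
  refine eq_one_of_sq (oe_iff.2 ⟨n * m, hn.mul hm, ?_⟩) c2
  have := congrArg (· ^ n) e2
  simp only [← pow_mul, one_pow] at this
  rwa [Commute.mul_pow e, mul_comm m, pow_mul g, e1, one_pow, one_mul] at this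

/-- Distinct with product of odd order. -/
def Od (a b : G) : Prop := a ≠ b ∧ Odd (orderOf (a * b))

/-- Product of order four. -/
def Fo (a b : G) : Prop := orderOf (a * b) = 4

/-- The commutator of two involutions. -/
def cm (a b : G) : G := a * b * a * b

theorem Od.symm (h : Od a b) : Od b a := ⟨h.1.symm, oe_swap h.2⟩

theorem Fo.symm (h : Fo a b) : Fo b a := by
  have : b * a = a⁻¹ * (a * b) * a⁻¹⁻¹ := by group
  rwa [Fo, this, ord_conj]

theorem Fo.four (h : Fo a b) : a * b * (a * b) * (a * b * (a * b)) = 1 := by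
  rw [← pow_orderOf_eq_one (a * b), h]; simp [pow_succ, mul_assoc]

theorem Fo.ne (h : Fo a b) : cm a b ≠ 1 := fun e => by
  have := orderOf_dvd_of_pow_eq_one (n := 2) (x := a * b) (by rw [← e, sq, cm]; group)
  rw [h] at this; omega

theorem Od.conj (h : Od a b) (g : G) : Od (g * a * g⁻¹) (g * b * g⁻¹) :=
  ⟨fun e => h.1 (by simpa using e), by simpa [mul_assoc] using oe_conj h.2 g⟩

theorem Fo.conj (h : Fo a b) (g : G) : Fo (g * a * g⁻¹) (g * b * g⁻¹) := by
  rwa [Fo, show g * a * g⁻¹ * (g * b * g⁻¹) = g * (a * b) * g⁻¹ by group, ord_conj]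

/-- A set of root involutions, closed under conjugation by its own members. -/
structure Rs (D : Set G) : Prop where
  sq : ∀ a ∈ D, a * a = 1
  ne : ∀ a ∈ D, a ≠ 1
  cj : ∀ a ∈ D, ∀ b ∈ D, a * b * a ∈ D
  pair : ∀ a ∈ D, ∀ b ∈ D, a * b = b * a ∨ Od a b ∨ (Fo a b ∧ cm a b ∈ D)

theorem rs_of (h : IsRootInvolutionSet D) : Rs D := by
  have s : ∀ a ∈ D, a * a = 1 := fun a ha => by rw [← sq, ← h.orderOf_eq a ha, pow_orderOf_eq_one]
  refine ⟨s, fun a ha e => by simpa [e] using h.orderOf_eq a ha, fun a ha b hb => ?_, fun a ha b hb => ?_⟩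
  · simpa [inv_eq_of_mul_eq_one_right (s a ha)] using h.conj_mem b hb a
  · by_cases e : a = b
    · exact .inl (by rw [e])
    · exact (h.pair a ha b hb).imp_right (.imp (⟨e, ·⟩) fun i => ⟨i.1, by
        simpa [cm, sq, mul_assoc] using i.2⟩)

/-- `a`, `b`, `a * b` form a line. -/
structure Ln (D : Set G) (a b : G) : Prop where
  l : a ∈ D
  r : b ∈ D
  c : a * b = b * a
  m : a * b ∈ D

theorem Ln.symm (h : Ln D a b) : Ln D b a := ⟨h.r, h.l, h.c.symm, h.c ▸ h.m⟩

namespace Rs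

variable (h : Rs D)
include h

theorem inv (ha : a ∈ D) : a⁻¹ = a := inv_eq_of_mul_eq_one_right (h.sq a ha)

theorem cc (ha : a ∈ D) (x : G) : a * (a * x) = x := by rw [← mul_assoc, h.sq a ha, one_mul]

theorem third (l : Ln D a b) : Ln D a (a * b) :=
  ⟨l.l, l.m, by rw [mul_assoc, ← l.c], by rw [h.cc l.l]; exact l.r⟩

theorem od_ne_one (ha : a ∈ D) (o : Od a b) : a * b ≠ 1 := fun e =>
  o.1 (by rw [← h.inv ha, inv_eq_of_mul_eq_one_right e])

theorem od_nc (ha : a ∈ D) (hb : b ∈ D) (o : Od a b) : a * b ≠ b * a := fun e =>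
  h.od_ne_one ha o (eq_one_of_sq o.2 (by
    rw [mul_assoc, ← mul_assoc b, ← e, mul_assoc, h.sq b hb, mul_one, h.sq a ha]))

theorem od_nf (ha : a ∈ D) (o : Od a b) : ¬ Fo a b := fun f => h.od_ne_one ha o (eq_one_of_four o.2 f.four)

theorem fo_nc (ha : a ∈ D) (hb : b ∈ D) (f : Fo a b) : a * b ≠ b * a := fun e => f.ne (by
  rw [cm, e, mul_assoc b, h.sq a ha, mul_one, h.sq b hb])

theorem cm_mem (ha : a ∈ D) (hb : b ∈ D) (f : Fo a b) : cm a b ∈ D := by
  rcases h.pair a ha b hb with i | i | i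
  · exact absurd i (h.fo_nc ha hb f)
  · exact absurd f (h.od_nf ha i)
  · exact i.2

theorem tri (ha : a ∈ D) (hb : b ∈ D) : a * b = b * a ∨ Od a b ∨ Fo a b :=
  (h.pair a ha b hb).imp_right (.imp_right (·.1))

theorem cm_symm (ha : a ∈ D) (hb : b ∈ D) (f : Fo a b) : cm b a = cm a b := by
  rw [← h.inv (h.cm_mem ha hb f)]; simp [cm, h.inv ha, h.inv hb, mul_assoc]

theorem cm_l (ha : a ∈ D) (hb : b ∈ D) (f : Fo a b) : a * cm a b = cm a b * a := by
  conv_rhs => rw [← h.cm_symm ha hb f]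
  simp [cm, mul_assoc, h.cc ha, h.sq a ha]

theorem cm_r (ha : a ∈ D) (hb : b ∈ D) (f : Fo a b) : b * cm a b = cm a b * b := by
  rw [← h.cm_symm ha hb f]; exact h.cm_l hb ha f.symm

theorem cj_l (ha : a ∈ D) : b * a * b = a * cm a b := by simp [cm, mul_assoc, h.cc ha]

theorem cj_r (ha : a ∈ D) (hb : b ∈ D) (f : Fo a b) : a * b * a = b * cm a b := by
  rw [← h.cm_symm ha hb f, h.cj_l hb]

theorem ln_cm (ha : a ∈ D) (hb : b ∈ D) (f : Fo a b) : Ln D a (cm a b) :=
  ⟨ha, h.cm_mem ha hb f, h.cm_l ha hb f, h.cj_l ha ▸ h.cj b hb a ha⟩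

theorem ln_cm' (ha : a ∈ D) (hb : b ∈ D) (f : Fo a b) : Ln D b (cm a b) :=
  h.cm_symm ha hb f ▸ h.ln_cm hb ha f.symm

theorem no_mix (hx : x ∈ D) (hy : y ∈ D) (e : x * y = g * c) (o : Odd (orderOf g)) (g1 : g ≠ 1)
    (gc : g * c = c * g) (c2 : c * c = 1) : c = 1 := by
  have k : x * y * (x * y) = g * g := by
    rw [e, mul_assoc, ← mul_assoc c, ← gc, mul_assoc, c2, mul_one]
  rcases h.tri hx hy with i | i | i
  · refine absurd (eq_one_of_sq o ?_) g1
    rw [← k, mul_assoc, ← mul_assoc y, ← i, mul_assoc, h.sq y hy, mul_one, h.sq x hx]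
  · exact eq_one_of_mix o (e ▸ i.2) gc c2
  · exact absurd (eq_one_of_four o (k ▸ i.four)) g1

/-- A point collinear with `a` does not commute with an opposite of `a`. -/
theorem o1 (l : Ln D a b) (hx : x ∈ D) (o : Od a x) : x * b ≠ b * x := fun e =>
  h.ne b l.r (h.no_mix hx l.m (mul_assoc _ _ _).symm o.symm.2 (h.od_ne_one hx o.symm)
    (by rw [mul_assoc, l.c, ← mul_assoc, e, mul_assoc]) (h.sq b l.r))

theorem o2 (ha : a ∈ D) (hx : x ∈ D) (hc : c ∈ D) (o : Od a x) (e : a * c = c * a) (f : Fo c x) :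
    Fo a (cm c x) := by
  have hz := h.cm_mem hc hx f
  rcases h.tri ha hz with i | i | i
  · refine absurd (eq_one_of_mix o.2 ?_ ?_ (h.sq _ hz)) f.ne
    · have := oe_conj o.2 c
      rwa [h.inv hc, ← mul_assoc, ← e, mul_assoc a, mul_assoc a, h.cj_r hc hx f, ← mul_assoc] at this
    · rw [mul_assoc, h.cm_r hc hx f, ← mul_assoc, i, mul_assoc]
  · exact absurd e (h.o1 (h.ln_cm hc hx f).symm ha i.symm)
  · exact i

theorem o3 (l : Ln D a b) (hx : x ∈ D) (o : Od a x) (f : Fo b x) : Od (a * b) x := by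
  rcases h.tri l.m hx with i | i | i
  · exact absurd i.symm (h.o1 (h.third l) hx o)
  · exact i
  exfalso
  have hz := h.cm_mem l.r hx f
  have hz' := h.cm_mem l.m hx i
  have f2 := h.o2 l.l hx l.r o l.c f
  have e1 := h.cj_l (b := x) l.r
  have e2 := h.cj_l (b := x) l.m
  have c1 := h.cm_l l.r hx f
  have c2 := h.cm_l l.m hx i
  have c3 := h.cm_r l.r hx f
  have c4 := h.cm_r l.m hx i
  have e3 := h.cj_l (b := cm b x) l.l
  have hw := h.cm_mem l.l hz f2
  have c5 := h.cm_l l.l hz f2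
  have wd : cm a (cm b x) = a * cm b x * a * cm b x := rfl
  generalize cm a (cm b x) = w at *
  generalize cm b x = z at *
  generalize cm (a * b) x = z' at *
  have k1 : x * a * x = z' * a * z := by
    calc _ = x * (a * b) * x * (x * b * x) := by simp [mul_assoc, h.cc hx, h.cc l.r]
      _ = _ := by rw [e2, e1, c2]; simp [mul_assoc, h.cc l.r]
  have k2 : a * (z * z') * a = z' * z := by
    have : z' * a * z * (z' * a * z) = 1 := by rw [← k1]; simp [mul_assoc, h.cc hx, h.cc l.l, h.sq x hx]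
    calc _ = z' * (z' * a * z * (z' * a * z)) * z := by simp [mul_assoc, h.cc hz', h.sq z hz]
      _ = _ := by rw [this, mul_one]
  have k2' : a * (z' * z) * a = z * z' := by rw [← k2]; simp [mul_assoc, h.cc l.l, h.sq a l.l]
  have k3 : x * (z * z') = z * z' * x := by rw [← mul_assoc, c3, mul_assoc, c4, mul_assoc]
  have k3' : x * (z' * z) = z' * z * x := by rw [← mul_assoc, c4, mul_assoc, c3, mul_assoc]
  have k4 : a * x * (z * z') = z' * z * (a * x) := by
    rw [mul_assoc, k3, ← k2]; simp [mul_assoc, h.cc l.l]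
  have k4' : a * x * (z' * z) = z * z' * (a * x) := by
    rw [mul_assoc, k3', ← k2']; simp [mul_assoc, h.cc l.l]
  have k5 : z * z' = z' * z := by
    have := comm_of_sq o.2 (u := z * z') (by rw [mul_assoc, k4, ← mul_assoc, k4', mul_assoc])
    rw [k4] at this
    exact (mul_right_cancel this).symm
  have k6 : a * (z * z') = z * z' * a := by
    conv_rhs => rw [k5, ← k2]
    simp [mul_assoc, h.sq a l.l]
  have k7 : z * (z * z') = z * z' * z := by rw [mul_assoc, ← k5]
  have k8 : w * (z * z') = z * z' * w := by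
    rw [wd]; exact ((Commute.mul_left (Commute.mul_left (Commute.mul_left k6 k7) k6) k7)).eq
  have k9 : x * a * (x * a) = z * z' * w := by
    rw [← mul_assoc, k1]
    calc _ = z' * z * (z * a * z) * a := by simp [mul_assoc, h.cc hz]
      _ = _ := by rw [e3, c5, k5]; simp [mul_assoc, h.sq a l.l]
  refine h.od_ne_one hx o.symm (eq_one_of_four o.symm.2 ?_)
  rw [k9, mul_assoc, ← mul_assoc w, k8, mul_assoc _ w, h.sq w hw, mul_one]
  nth_rw 1 [k5]
  simp [mul_assoc, h.cc hz, h.sq z' hz']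

/-- An opposite of a point of a line is opposite to the second point, or special to it and opposite to the third. -/
theorem line (l : Ln D a b) (hx : x ∈ D) (o : Od a x) : Od b x ∨ (Fo b x ∧ Od (a * b) x) := by
  rcases h.tri l.r hx with i | i | i
  · exact absurd i.symm (h.o1 l hx o)
  · exact .inl i
  · exact .inr ⟨i, h.o3 l hx o i⟩

theorem refl_mem (ha : a ∈ D) (hb : b ∈ D) : ∀ j : ℕ, (a * b) ^ j * a ∈ D
  | 0 => by simpa
  | 1 => by simpa using h.cj a ha b hb
  | j + 2 => by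
    have := h.cj a ha _ (h.cj b hb _ (refl_mem ha hb j))
    have e : (a * b) ^ (j + 2) * a = a * (b * ((a * b) ^ j * a) * b) * a := by
      rw [pow_succ, pow_succ']; simp only [mul_assoc]
    rwa [e]

theorem refl_mul (ha : a ∈ D) (hb : b ∈ D) (j : ℕ) : (a * b) ^ j * a * (a * b) ^ j = a := by
  induction j with
  | zero => simp
  | succ j i =>
    nth_rw 2 [pow_succ']
    rw [pow_succ]
    calc _ = (a * b) ^ j * (a * (b * (a * (a * b)))) * (a * b) ^ j := by simp only [mul_assoc]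
      _ = _ := by rw [h.cc ha, h.sq b hb, mul_one, i]

/-- Opposite members are interchanged by a member in the dihedral group they generate. -/
theorem swap (ha : a ∈ D) (hb : b ∈ D) (o : Od a b) :
    ∃ s ∈ D, s * a * s = b ∧ ∀ H : Subgroup G, a ∈ H → b ∈ H → s ∈ H := by
  obtain ⟨n, ⟨k, rfl⟩, e⟩ := oe_iff.1 o.2
  refine ⟨_, h.refl_mem ha hb k, ?_, fun H h1 h2 => mul_mem (pow_mem (mul_mem h1 h2) _) h1⟩
  calc _ = (a * b) ^ k * (a * a) * (a * b) ^ k * a * (b * b) := by simp only [h.sq b hb, mul_one, mul_assoc]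
    _ = (a * b) ^ (2 * k + 1) * b := by
      rw [h.sq a ha, mul_one, pow_succ, two_mul, pow_add]; simp only [mul_assoc]
    _ = _ := by rw [e, one_mul]

theorem inj (ha : a ∈ D) (hx : x ∈ D) (o : Od a x) (l : Ln D a b) (f : Fo b x) (l' : Ln D a c)
    (e : cm b x = cm c x) : b = c := by
  have e1 : b * x * b = c * x * c := by
    have := congrArg (· * x) e
    simpa [cm, mul_assoc, h.sq x hx] using this
  have e2 : x * (b * c) = b * c * x := by
    calc _ = b * (b * x * b) * c := by simp [mul_assoc, h.cc l.r]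
      _ = _ := by rw [e1]; simp [mul_assoc, h.sq c l'.r]
  have o' := h.o3 l hx o f
  rcases h.tri l.r l'.r with i | i | i
  · have := h.no_mix (g := x * (a * b)) (c := b * c) hx l'.m (by simp [mul_assoc, h.cc l.r]) o'.symm.2
      (h.od_ne_one hx o'.symm) ((Commute.mul_left e2 (Commute.mul_left (Commute.mul_right l.c l'.c)
        (Commute.mul_right (Commute.refl b) i)))).eq
      (by rw [mul_assoc, ← mul_assoc c, ← i, mul_assoc, h.sq c l'.r, mul_one, h.sq b l.r])
    rw [← h.inv l.r, inv_eq_of_mul_eq_one_right this]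
  · exact absurd l'.c.symm (h.o1 l.symm l'.r i)
  · have l2 : Ln D (a * b) (cm b c) := ⟨l.m, h.cm_mem l.r l'.r i, (Commute.mul_left
      (Commute.mul_right (Commute.mul_right (Commute.mul_right l.c l'.c) l.c) l'.c) (h.cm_l l.r l'.r i)).eq, by
        rw [mul_assoc, ← h.cj_l l.r, ← mul_assoc, ← mul_assoc, l'.c, mul_assoc c]
        exact h.cj c l'.r _ l.m⟩
    refine absurd ?_ (h.o1 l2 hx o')
    rw [cm, mul_assoc (b * c)]
    exact (Commute.mul_right e2 e2).eq

/-- A point collinear with `a` and special to an opposite `x` of `a` is a commutator `[c, a]`. -/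
theorem exists_cm [Finite G] (hx : x ∈ D) (o : Od a x) (l : Ln D a b) (f : Fo b x) :
    ∃ c, Ln D x c ∧ Fo c a ∧ cm c a = b := by
  have k : ∀ {a x : G}, a ∈ D → x ∈ D → Od a x → ∀ b ∈ {b | Ln D a b ∧ Fo b x},
      cm b x ∈ {c | Ln D x c ∧ Fo c a} := fun ha hx o b hb =>
    ⟨h.ln_cm' hb.1.r hx hb.2, (h.o2 ha hx hb.1.r o hb.1.c hb.2).symm⟩
  have i : ∀ {a x : G}, a ∈ D → x ∈ D → Od a x → ∀ b₁ b₂ (h₁ : b₁ ∈ {b | Ln D a b ∧ Fo b x})
      (_ : b₂ ∈ {b | Ln D a b ∧ Fo b x}), cm b₁ x = cm b₂ x → b₁ = b₂ :=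
    fun ha hx o _ _ h1 h2 e => h.inj ha hx o h1.1 h1.2 h2.1 e
  obtain ⟨c, hc, e⟩ := Set.surj_on_of_inj_on_of_ncard_le (fun c _ => cm c a) (k hx l.l o.symm) (i hx l.l o.symm)
    (Set.ncard_le_ncard_of_injOn (cm · x) (k l.l hx o) fun _ h1 _ h2 => i l.l hx o _ _ h1 h2) (Set.toFinite _)
    b ⟨l, f⟩
  exact ⟨c, hc.1, hc.2, e.symm⟩

/-- Baer–Suzuki for a self-normalizing subset without opposite pairs. -/
theorem baer [Finite G] {T : Set G} (hT : T ⊆ D) (hc : ∀ a ∈ T, ∀ b ∈ T, a * b * a ∈ T)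
    (ho : ∀ a ∈ T, ∀ b ∈ T, ¬ Od a b) : IsPGroup 2 (closure T) := by
  haveI : Fact (Nat.Prime 2) := ⟨Nat.prime_two⟩
  have zp : ∀ g : G, g ^ 4 = 1 → IsPGroup 2 (zpowers g) := fun g e =>
    IsPGroup.of_card_dvd_pow (n := 2) (by rw [Nat.card_zpowers]; exact orderOf_dvd_of_pow_eq_one e)
  have cl : ∀ g ∈ closure T, ∀ b ∈ T, g * b * g⁻¹ ∈ T := fun g hg =>
    closure_induction'' (p := fun g _ => ∀ b ∈ T, g * b * g⁻¹ ∈ T)
      (fun a ha b hb => by rw [h.inv (hT ha)]; exact hc a ha b hb)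
      (fun a ha b hb => by rw [inv_inv, h.inv (hT ha)]; exact hc a ha b hb) (by simp)
      (fun x y _ _ h1 h2 b hb => by simpa [mul_assoc] using h1 _ (h2 b hb)) hg
  refine (H9.Op_p 2 (closure T)).to_le ((closure_le _).2 fun a ha => ?_)
  refine zpowers_le.1 (H9.baer_suzuki (zpowers_le.2 (subset_closure ha)) fun g hg => ?_)
  have hb := cl g hg a ha
  have e : H9.cj g (zpowers a) = zpowers (g * a * g⁻¹) := by simp [H9.cj]
  rw [e]
  generalize g * a * g⁻¹ = b at hb
  have a2 := h.sq a (hT ha)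
  have b2 := h.sq b (hT hb)
  refine (IsPGroup.to_sup_of_normal_right' (zp a (by rw [show 4 = 2 * 2 by rfl, pow_mul, pow_two a, a2, one_pow]))
    (zp (a * b) ?_) (zpowers_le.2 ?_)).to_le (sup_le le_sup_left (zpowers_le.2 ?_))
  · rcases h.tri (hT ha) (hT hb) with i | i | i
    · rw [Commute.mul_pow i, show 4 = 2 * 2 by rfl, pow_mul, pow_mul, pow_two a, pow_two b, a2, b2]; simp
    · exact absurd i (ho a ha b hb)
    · rw [← i, pow_orderOf_eq_one]
  · refine mem_normalizer_fintype ?_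
    rintro _ ⟨n, rfl⟩
    refine ⟨-n, ?_⟩
    simp only [← conj_zpow, zpow_neg, ← inv_zpow]
    congr 1
    simp [h.inv (hT ha), h.inv (hT hb), mul_assoc, h.cc (hT ha)]
  · have := mul_mem (mem_sup_left (S := zpowers a) (T := zpowers (a * b)) (mem_zpowers a))
      (mem_sup_right (mem_zpowers _))
    rwa [h.cc (hT ha)] at this

end Rs

end RI
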