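import Cfsg.Agent.RI.B

/-! RI.C: classes of root involutions without isolated vertices. -/

set_option autoImplicit false

namespace RI

open Cfsg Subgroup Relation
open scoped commutatorElement

variable {G : Type*} [Group G] {D : Set G} {a b c d e x y z g u : G}

theorem odAdj_iff : OddAdj D a b ↔ a ∈ D ∧ b ∈ D ∧ Od a b := Iff.rfl

theorem odAdj_symm (h : OddAdj D a b) : OddAdj D b a := ⟨h.2.1, h.1, Od.symm h.2.2⟩

theorem iso_iff : IsIsolatedElem (OddAdj D) D a ↔ a ∈ D ∧ ∀ b ∈ D, ¬ Od a b :=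
  and_congr_right fun ha => ⟨fun h b hb o => (h b).1 ⟨ha, hb, o⟩, fun h b =>
    ⟨fun o => h b o.2.1 o.2.2, fun o => h b o.1 (Od.symm o.2.2)⟩⟩

theorem mem_of_sq {N : Subgroup G} (h : Odd (orderOf g)) (e : g * g ∈ N) : g ∈ N := by
  obtain ⟨n, ⟨k, rfl⟩, h⟩ := oe_iff.1 h
  have : g = (g * g) ^ (k + 1) := by rw [← sq, ← pow_mul, show 2 * (k + 1) = 2 * k + 1 + 1 by ring, pow_succ, h, one_mul]
  exact this ▸ pow_mem e _

theorem eq_one_of_mem {N : Subgroup G} (hN : IsPGroup 2 N) (h : Odd (orderOf g)) (e : g ∈ N) : g = 1 :=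
  let ⟨_, i⟩ := hN ⟨g, e⟩
  eq_one_of_pow h (congrArg Subtype.val i)

theorem norm_closure [Finite G] {T : Set G} (h : ∀ t ∈ T, g * t * g⁻¹ ∈ T) : g ∈ normalizer (closure T : Set G) :=
  mem_normalizer_fintype fun _ hn => closure_induction (fun t ht => subset_closure (h t ht)) (by simp)
    (fun x y _ _ h1 h2 => by simpa [mul_assoc] using mul_mem h1 h2)
    (fun x _ h1 => by simpa [mul_assoc] using inv_mem h1) hn

theorem Rs.zp (h : Rs D) (ha : a ∈ D) : IsPGroup 2 (zpowers a) :=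
  IsPGroup.of_card_dvd_pow (n := 1) (by
    rw [Nat.card_zpowers]; exact orderOf_dvd_of_pow_eq_one (by rw [pow_one, pow_two, h.sq a ha]))

theorem Rs.not_od (h : Rs D) {N : Subgroup G} (hN : IsPGroup 2 N) (ha : a ∈ D) (hb : b ∈ D) (i : a ∈ N)
    (j : b ∈ normalizer (N : Set G)) : ¬ Od a b := fun o =>
  h.od_ne_one ha o (eq_one_of_mem (IsPGroup.to_sup_of_normal_right' (h.zp hb) hN (zpowers_le.2 j)) o.2
    (mul_mem (mem_sup_right i) (mem_sup_left (mem_zpowers b))))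

theorem Rs.conj_of_path (h : Rs D) (p : ReflTransGen (OddAdj D) a b) : ∃ g : G, b = g * a * g⁻¹ := by
  induction p with
  | refl => exact ⟨1, by simp⟩
  | tail _ i j =>
    obtain ⟨g, rfl⟩ := j
    obtain ⟨s, hs, e, -⟩ := h.swap i.1 i.2.1 i.2.2
    exact ⟨s * g, by rw [← e, mul_inv_rev, h.inv hs]; simp only [mul_assoc]⟩

/-- Same opposites. -/
def Ve (D : Set G) (a b : G) : Prop := ∀ x ∈ D, Od a x ↔ Od b x

theorem Ve.symm (h : Ve D a b) : Ve D b a := fun x hx => (h x hx).symm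

theorem Ve.trans (h : Ve D a b) (h' : Ve D b c) : Ve D a c := fun x hx => (h x hx).trans (h' x hx)

/-- A class of root involutions without isolated vertices. -/
structure Cn (D : Set G) : Prop where
  ri : IsRootInvolutionSet D
  cl : ∀ a ∈ D, ∀ b ∈ D, ∃ g : G, b = g * a * g⁻¹
  ni : ∀ a ∈ D, ∃ x ∈ D, Od a x

theorem cn_of_class (h : IsRootInvolutionClass D) (ha : a ∈ D) (hb : b ∈ D) (o : Od a b) : Cn D :=
  ⟨h.1, h.2.2, fun c hc => by
    obtain ⟨g, rfl⟩ := h.2.2 a ha c hc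
    exact ⟨_, h.1.conj_mem b hb g, o.conj g⟩⟩

theorem cn_of_conn (h : IsRootInvolutionSet D) (hc : IsConnectedSet (OddAdj D) D) (ha : a ∈ D) (hb : b ∈ D)
    (ne : a ≠ b) : Cn D := by
  obtain ⟨c, i, -⟩ := (hc a ha b hb).cases_head.resolve_left ne
  exact cn_of_class ⟨h, ⟨a, ha⟩, fun a ha b hb => (rs_of h).conj_of_path (hc a ha b hb)⟩ ha i.2.1 i.2.2

namespace Cn

variable (h : Cn D)
include h

theorem rs : Rs D := rs_of h.ri

theorem ve_conj (v : Ve D a b) (g : G) : Ve D (g * a * g⁻¹) (g * b * g⁻¹) := fun x hx => by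
  have k : ∀ a, Od (g * a * g⁻¹) x ↔ Od a (g⁻¹ * x * g⁻¹⁻¹) := fun a =>
    ⟨fun o => by simpa [mul_assoc] using o.conj g⁻¹, fun o => by simpa [mul_assoc] using o.conj g⟩
  rw [k, k, v _ (h.ri.conj_mem x hx _)]

theorem ve_cj (v : Ve D a b) (hc : c ∈ D) : Ve D (c * a * c) (c * b * c) := by
  simpa [h.rs.inv hc] using h.ve_conj v c

variable [Finite G]

theorem ve_of_le (ha : a ∈ D) (hb : b ∈ D) (i : ∀ x ∈ D, Od a x → Od b x) : Ve D a b := by
  obtain ⟨g, rfl⟩ := h.cl a ha b hb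
  have := Set.eq_of_subset_of_ncard_le (s := {x | x ∈ D ∧ Od a x}) (t := {x | x ∈ D ∧ Od (g * a * g⁻¹) x})
    (fun x hx => ⟨hx.1, i x hx.1 hx.2⟩) (Set.ncard_le_ncard_of_injOn (fun x => g⁻¹ * x * g⁻¹⁻¹)
      (fun x hx => ⟨h.ri.conj_mem x hx.1 _, by simpa [mul_assoc] using hx.2.conj g⁻¹⟩)
      (fun x _ y _ e => by simpa using e))
  exact fun x hx => ⟨i x hx, fun o => (this.ge ⟨hx, o⟩).2⟩

theorem ve_third (l : Ln D a b) (v : Ve D b (a * b)) : Ve D a b :=
  h.ve_of_le l.l l.r fun x hx o => (h.rs.line l hx o).elim id fun i => (v x hx).2 i.2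

omit [Finite G] in
theorem ve_nod (hb : b ∈ D) (v : Ve D a b) : ¬ Od a b := fun o => ((v b hb).1 o).1 rfl

theorem ve_cm (ha : a ∈ D) (hc : c ∈ D) (f : Fo c a) (v : Ve D a (c * a * c)) : Ve D (cm c a) a := by
  have l := (h.rs.ln_cm' hc ha f).symm
  exact h.ve_third l (by rwa [l.c, ← h.rs.cj_r hc ha f])

theorem ve_comm (ha : a ∈ D) (hb : b ∈ D) (v : Ve D a b) : a * b = b * a := by
  haveI : Fact (Nat.Prime 2) := ⟨Nat.prime_two⟩
  set T := {t | t ∈ D ∧ Ve D a t}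
  have hc : ∀ s ∈ T, ∀ t ∈ T, s * t * s ∈ T := fun s hs t ht => ⟨h.rs.cj s hs.1 t ht.1, hs.2.trans (by
    simpa [h.rs.sq s hs.1] using h.ve_cj (hs.2.symm.trans ht.2) hs.1)⟩
  have ho : ∀ s ∈ T, ∀ t ∈ T, ¬ Od s t := fun s hs t ht => h.ve_nod ht.1 (hs.2.symm.trans ht.2)
  haveI := (h.rs.baer (fun t ht => ht.1) hc ho).isNilpotent
  have k : ∀ n, ∀ t (ht : t ∈ T), (⟨t, subset_closure ht⟩ : closure T) ∈ Subgroup.upperCentralSeries (closure T) n →
      ∃ t ∈ T, ∀ s ∈ T, s * t = t * s := fun n => by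
    induction n with
    | zero => exact fun t ht i => absurd (congrArg Subtype.val (mem_bot.1 i)) (h.rs.ne t ht.1)
    | succ n i =>
      intro t ht j
      by_contra! H
      obtain ⟨s, hs, e⟩ := H t ht
      have f := ((h.rs.tri hs.1 ht.1).resolve_left e).resolve_left (ho s hs t ht)
      have hz : cm s t ∈ T := ⟨h.rs.cm_mem hs.1 ht.1 f,
        ht.2.trans (h.ve_cm ht.1 hs.1 f (ht.2.symm.trans (hc s hs t ht).2)).symm⟩
      obtain ⟨t, ht, k⟩ := i _ hz (by
        convert Subgroup.mem_upperCentralSeries_succ_iff.1 j ⟨s, subset_closure hs⟩ using 1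
        ext
        refine (h.rs.cm_symm hs.1 ht.1 f).symm.trans ?_
        simp [commutatorElement_def, h.rs.inv hs.1, h.rs.inv ht.1, cm])
      obtain ⟨s, hs, e⟩ := H t ht
      exact e (k s hs)
  obtain ⟨t, ht, k⟩ := k _ a ⟨ha, fun _ _ => Iff.rfl⟩ (Subgroup.upperCentralSeries_nilpotencyClass.ge (mem_top _))
  obtain ⟨g, rfl⟩ := h.cl t ht.1 a ha
  have := k (g⁻¹ * b * g⁻¹⁻¹) ⟨h.ri.conj_mem b hb _, ht.2.trans (by simpa [mul_assoc] using h.ve_conj v g⁻¹)⟩
  calc _ = g * (t * (g⁻¹ * b * g⁻¹⁻¹)) * g⁻¹ := by group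
    _ = _ := by rw [← this]; group

theorem exists_od (l : Ln D a b) (v : ¬ Ve D a b) : ∃ x ∈ D, Od a x ∧ Fo b x := by
  by_contra! H
  exact v (h.ve_of_le l.l l.r fun x hx o => (h.rs.line l hx o).elim id fun i => absurd i.1 (H x hx o))

/-- Members with the same opposites have the same centralizers. -/
theorem ve_cen (hd : d ∈ D) (he : e ∈ D) (hc : c ∈ D) (v : Ve D d e) (i : c * d = d * c) : c * e = e * c := by
  have r := h.rs
  rcases r.tri hc he with j | j | f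
  · exact j
  · exact absurd i.symm (r.od_nc hd hc ((v c hc).2 j.symm))
  exfalso
  have v1 := h.ve_cj v hc
  rw [i, mul_assoc, r.sq c hc, mul_one] at v1
  have v2 := h.ve_cm he hc f (v.symm.trans v1)
  have l := (r.ln_cm hc he f).symm
  have v3 : ¬ Ve D (cm c e) c := fun j => r.fo_nc hc he f (h.ve_comm hc he (j.symm.trans v2))
  obtain ⟨x, hx, o, f'⟩ := h.exists_od l v3
  obtain ⟨w, lw, fw, ew⟩ := r.exists_cm hx o l f'
  have fe : Fo w e := by
    rcases r.tri lw.r he with j | j | j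
    · exact absurd j.symm (r.o1 lw he ((v2 x hx).1 o).symm)
    · exact absurd fw.symm (r.od_nf l.l ((v2 w lw.r).2 j.symm))
    · exact j
  have v4 := h.ve_cj v2 lw.r
  rw [r.cj_r lw.r l.l fw, ew, r.cj_r lw.r he fe] at v4
  have v5 := h.ve_cj v4 he
  rw [← mul_assoc, ← mul_assoc, r.sq e he, one_mul, ← r.cm_r lw.r he fe, r.cm_r hc he f, mul_assoc, mul_assoc,
    ← mul_assoc e, r.cj_l hc, ← mul_assoc, l.c, mul_assoc, r.sq _ l.l, mul_one] at v5
  exact v3 (h.ve_third l (v5.trans v4.symm))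

omit [Finite G] in
theorem ve_of_cen (hd : d ∈ D) (he : e ∈ D) (i : ∀ x ∈ D, x * d = d * x ↔ x * e = e * x) : Ve D d e := by
  have r := h.rs
  have k : ∀ {d e}, d ∈ D → e ∈ D → (∀ x ∈ D, x * d = d * x ↔ x * e = e * x) → ∀ x ∈ D, Od e x → Od d x :=
    fun {d e} hd he i x hx o => by
      rcases r.tri hd hx with j | j | j
      · exact absurd ((i x hx).1 j.symm).symm (r.od_nc he hx o)
      · exact j
      · exact absurd ((i _ (r.cm_mem hd hx j)).1 (r.cm_l hd hx j).symm).symm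
          (r.fo_nc he (r.cm_mem hd hx j) (r.o2 he hx hd o ((i d hd).1 rfl).symm j))
  exact fun x hx => ⟨k he hd (fun x hx => (i x hx).symm) x hx, k hd he i x hx⟩

theorem same_iff (hd : d ∈ D) : e ∈ sameCommutingClass D d ↔ e ∈ D ∧ Ve D d e :=
  and_congr_right fun he => ⟨fun i => h.ve_of_cen hd he fun x hx =>
    ⟨fun j => (i.le ⟨hx, j⟩).2, fun j => (i.ge ⟨hx, j⟩).2⟩, fun v => Set.ext fun x =>
      and_congr_right fun hx => ⟨h.ve_cen hd he hx v, h.ve_cen he hd hx v.symm⟩⟩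

theorem exists_cm (l : Ln D a b) (v : ¬ Ve D a b) : ∃ c ∈ D, Fo c a ∧ cm c a = b := by
  obtain ⟨x, hx, o, f⟩ := h.exists_od l v
  obtain ⟨c, i, j⟩ := h.rs.exists_cm hx o l f
  exact ⟨c, i.r, j⟩

/-- A line not inside a class `E_a` is normalized by a copy of `S₃`. -/
theorem exists_three (l : Ln D a b) (v : ¬ Ve D a b) :
    ∃ c ∈ D, ∃ x ∈ D, Fo c a ∧ cm c a = b ∧ Fo x b ∧ cm x b = c ∧ orderOf (a * x) = 3 := by
  have r := h.rs
  obtain ⟨c, hc, f, e⟩ := h.exists_cm l v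
  have l' : Ln D b c := e ▸ (r.ln_cm hc l.l f).symm
  obtain ⟨x, hx, f', e'⟩ := h.exists_cm l' fun j => r.fo_nc hc l.l f (h.ve_cen l.r hc l.l j l.c).symm
  refine ⟨c, hc, x, hx, f, e, f', e', ?_⟩
  have a1 : a * (c * a) = c * b := by rw [← mul_assoc, r.cj_l hc, e]
  have a2 : x * (b * x) = b * c := by rw [← mul_assoc, r.cj_r hx l.r f', e']
  have a3 : x * c = c * x := e' ▸ r.cm_l hx l.r f'
  set g := a * x with hg
  have g1 : g * b = c * g := by
    calc _ = a * (x * (b * x)) * a * (a * x) := by simp [hg, mul_assoc, r.cc l.l, r.sq x hx]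
      _ = b * (a * (c * a)) * g := by rw [a2, ← mul_assoc a, l.c]; simp only [mul_assoc, hg]
      _ = _ := by rw [a1, ← l'.c, r.cc l.r]
  have g2 : g * c = c * b * g := by
    rw [← a1, hg, mul_assoc, a3]; simp [mul_assoc, r.cc l.l]
  have g3 : g * g * b = c * b * (g * g) := by rw [mul_assoc, g1, ← mul_assoc, g2, mul_assoc]
  have g4 : g * (g * g) * b = b * (g * (g * g)) := by
    rw [mul_assoc, g3, ← mul_assoc, ← mul_assoc g c, g2, mul_assoc _ g b, g1, ← l'.c]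
    simp [mul_assoc, r.cc hc]
  have o : Od a x := by
    rcases r.tri l.l hx with j | j | j
    · have : g * g = 1 := by
        rw [hg, mul_assoc, ← mul_assoc x, ← j, mul_assoc, r.sq x hx, mul_one, r.sq a l.l]
      rw [this, one_mul, mul_one] at g3
      exact absurd (by simpa using g3) (r.ne c hc)
    · exact j
    · have := j.four
      rw [← hg, mul_assoc] at this
      have k : g * (g * (g * g)) * b = c * (g * (g * (g * g))) := by rw [mul_assoc, g4, ← mul_assoc, g1, mul_assoc]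
      rw [this, one_mul, mul_one] at k
      exact absurd (k ▸ l.c.symm) (r.fo_nc hc l.l f)
  have ha' : x * (a * x * a) * x ∈ D := r.cj x hx _ (r.cj a l.l x hx)
  have e3 : a * (x * (a * x * a) * x) = g * (g * g) := by simp only [hg, mul_assoc]
  refine orderOf_eq_prime (by
    rw [pow_three, ← e3]
    by_contra n
    refine r.o1 l ha' ⟨fun j => n (by rw [← j, r.sq a l.l]), ?_⟩ ?_
    · rw [e3, ← pow_three]; exact o.2.of_dvd_nat (orderOf_pow_dvd 3)
    · rw [← r.cc l.l (x * (a * x * a) * x), e3, mul_assoc, g4, ← mul_assoc, l.c, mul_assoc]) (r.od_ne_one l.l o)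

end Cn

end RI
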